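import Cfsg.Agent.Lib.TC.Enc

namespace Cfsg.Agent.Lib.Schur.Fi23c.E7.CT0

open Cfsg.Agent.Lib.TC.Enc

set_option maxRecDepth 100000

/-- A part of the chunks of the certificate. -/
noncomputable def tree : Tr Nat :=
(Tr.leaf (nat_lit 0x519b0d40c2684068009))

end Cfsg.Agent.Lib.Schur.Fi23c.E7.CT0
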